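import Cfsg.Agent.H712.LD.SFour
import Cfsg.Agent.H755.Leo.Rat
import Cfsg.Agent.H686.CharKit

/-!
# The characters of the symmetric group of degree four at a transposition (helper712, (B,3) of S4884)
-/

set_option autoImplicit false

open Cfsg Equiv

namespace Cfsg.Agent.H712.LD

open Cfsg.Agent.Characters.Core

theorem card_centralizer_swap :
    Nat.card (Subgroup.centralizer ({swap 0 1} : Set (Perm (Fin 4)))) = 4 := by
  have h1 : Nat.card (Subgroup.centralizer ({swap 0 1} : Set (Perm (Fin 4)))) =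
      Nat.card {g : Perm (Fin 4) // g * swap 0 1 = swap 0 1 * g} :=
    Nat.card_congr (Equiv.subtypeEquivRight fun g => Subgroup.mem_centralizer_singleton_iff)
  rw [h1, Nat.card_eq_fintype_card]
  decide +kernel

/-- **Values at the identity and at a transposition.** -/
theorem values_S4_swap {φ : Perm (Fin 4) → ℂ} (hφ : IsIrrCharacter (Perm (Fin 4)) φ) :
    ∃ a : ℤ, φ (swap 0 1) = a ∧ ((φ 1 = 1 ∧ (a = 1 ∨ a = -1)) ∨ (φ 1 = 2 ∧ a = 0) ∨
      (φ 1 = 3 ∧ (a = 1 ∨ a = -1))) := by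
  classical
  have : Finite (IrrCharacter (Perm (Fin 4))) := finite_irr
  have := Fintype.ofFinite (IrrCharacter (Perm (Fin 4)))
  obtain ⟨d, hd⟩ := isCharacter_apply_one (isIrr_isCharacter hφ)
  have h2 : orderOf (swap 0 1 : Perm (Fin 4)) = 2 := orderOf_eq_prime (by decide +kernel) (by decide +kernel)
  obtain ⟨a, b, hab, hv⟩ := Cfsg.Agent.H755.Leo.rat_val Nat.prime_two h2 (isIrr_isCharacter hφ)
    (fun i h3 h4 => by
      have h5 : i = 1 := by omega
      rw [h5, pow_one]) hd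
  have hv' : φ (swap 0 1) = ((a : ℤ) - (b : ℤ) : ℤ) := by rw [hv]; push_cast; ring
  -- the bound
  have hb : φ ≠ 1 → ((a : ℤ) - b) ^ 2 ≤ 3 := by
    intro hne
    have h3 := Cfsg.Agent.H686.CharKit.sum_normSq (swap 0 1 : Perm (Fin 4))
    rw [card_centralizer_swap] at h3
    let o : IrrCharacter (Perm (Fin 4)) := ⟨1, isIrr_one⟩
    let f : IrrCharacter (Perm (Fin 4)) := ⟨φ, hφ⟩
    have hof : o ≠ f := fun h => hne (congrArg Subtype.val h).symm
    have h4 : ∑ χ ∈ ({o, f} : Finset (IrrCharacter (Perm (Fin 4)))), Complex.normSq ((χ : Perm (Fin 4) → ℂ) (swap 0 1)) ≤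
        ∑ χ : IrrCharacter (Perm (Fin 4)), Complex.normSq ((χ : Perm (Fin 4) → ℂ) (swap 0 1)) :=
      Finset.sum_le_sum_of_subset_of_nonneg (Finset.subset_univ _) fun _ _ _ => Complex.normSq_nonneg _
    rw [h3, Finset.sum_pair hof] at h4
    have h5 : Complex.normSq ((o : Perm (Fin 4) → ℂ) (swap 0 1)) = 1 := by
      show Complex.normSq 1 = 1
      exact map_one _
    have h6 : Complex.normSq ((f : Perm (Fin 4) → ℂ) (swap 0 1)) = (((a : ℤ) - b) ^ 2 : ℤ) := by
      show Complex.normSq (φ (swap 0 1)) = _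
      rw [hv']
      have := Complex.normSq_ofReal (((a : ℤ) - b : ℤ) : ℝ)
      rw [Complex.ofReal_intCast] at this
      rw [this]
      push_cast
      ring
    rw [h5, h6] at h4
    have h7 : (1 : ℝ) + (((a : ℤ) - b) ^ 2 : ℤ) ≤ 4 := by exact_mod_cast h4
    have h8 : (1 : ℤ) + ((a : ℤ) - b) ^ 2 ≤ 4 := by exact_mod_cast h7
    linarith
  have hsq : φ ≠ 1 → (a : ℤ) - b = 0 ∨ (a : ℤ) - b = 1 ∨ (a : ℤ) - b = -1 := by
    intro h
    have h3 := hb h
    have h4 : (a : ℤ) - b ≤ 1 := by nlinarith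
    have h5 : -1 ≤ (a : ℤ) - b := by nlinarith
    omega
  refine ⟨(a : ℤ) - b, hv', ?_⟩
  by_cases h1 : φ = 1
  · left
    subst h1
    refine ⟨rfl, Or.inl ?_⟩
    have : (1 : ℂ) = (((a : ℤ) - b : ℤ) : ℂ) := by
      rw [← hv']
      rfl
    exact_mod_cast this.symm
  · have h3 := hsq h1
    rcases values_S4 hφ with ⟨h4, -⟩ | ⟨h4, -⟩ | ⟨h4, -⟩
    · left
      refine ⟨h4, ?_⟩
      have h5 : d = 1 := by
        rw [hd] at h4
        exact_mod_cast h4
      omega
    · right; left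
      refine ⟨h4, ?_⟩
      have h5 : d = 2 := by
        rw [hd] at h4
        exact_mod_cast h4
      omega
    · right; right
      refine ⟨h4, ?_⟩
      have h5 : d = 3 := by
        rw [hd] at h4
        exact_mod_cast h4
      omega

end Cfsg.Agent.H712.LD
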